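import Cfsg.Agent.Fu.TG2
import Cfsg.Agent.Fu.TL2

/-! Structure of the normaliser of `3^{1+4}` in `Co0`. -/

set_option autoImplicit false

namespace Cfsg.Agent.Fu.T

open Cfsg.Agent.Co Cfsg.Agent.Co.A Cfsg.Spor Cfsg.Agent.H4 Cfsg.Agent.L Cfsg.Agent.L.PC

theorem comQ {x y : S6} (a : x ∈ Q5) (b : y ∈ Q5) :
    x * y = y * x ↔ x.a * y.q + x.z * y.s = y.a * x.q + y.z * x.s := by
  simp only [S6.ext_iff, mu_p, mu_q, mu_s, mu_u, mu_a, mu_z, mem_Q5.1 a, mem_Q5.1 b]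
  constructor
  · intro h; grind
  · intro h; grind

theorem AutQ.eq {τ : S6 → S6} (h : AutQ τ) {x y : S6} (a : x ∈ Q5) (b : y ∈ Q5)
    (e : τ x = τ y) : x = y := by
  have := h.mul _ (mul_mem a (inv_mem b)) y b
  rw [inv_mul_cancel_right, e] at this
  exact mul_inv_eq_one.1 (h.inj _ (mul_mem a (inv_mem b))
    (mul_right_cancel (this.symm.trans (one_mul _).symm)))

theorem AutQ.com {τ : S6 → S6} (h : AutQ τ) {x y : S6} (a : x ∈ Q5) (b : y ∈ Q5) :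
    τ x * τ y = τ y * τ x ↔ x * y = y * x :=
  ⟨fun e => h.eq (mul_mem a b) (mul_mem b a) (by rw [h.mul x a y b, h.mul y b x a, e]),
    fun e => by rw [← h.mul x a y b, ← h.mul y b x a, e]⟩

theorem AutQ.val {τ : S6 → S6} (h : AutQ τ) : Val (τ xq).q (τ xq).s (τ xq).a (τ xq).z
    (τ xs).q (τ xs).s (τ xs).a (τ xs).z := by
  have mq := h.mem xq rfl
  have ms := h.mem xs rfl
  refine ⟨(comQ mq ms).1 ((h.com rfl rfl).2 (by decide)), fun e => ?_, fun i e => ?_⟩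
  · exact absurd ((h.com (x := xs) (y := xz) rfl rfl).1 ((comQ ms (h.mem _ rfl)).2
      (by simp [e.1, e.2.1, e.2.2.1, e.2.2.2]))) (by decide)
  · have k := (comQ ms (h.mem xa rfl)).1 ((h.com rfl rfl).2 (by decide))
    exact absurd ((h.com (x := xq) (y := xa) rfl rfl).1 ((comQ mq (h.mem _ rfl)).2
      (by rw [e.1, e.2.1, e.2.2.1, e.2.2.2]; linear_combination i * k))) (by decide)

def V1 (u : ℕ) : ℕ := app 36 cW1 u
def V2 (u v : ℕ) : ℕ := app 36 cW2 (evw cTq (V1 u) v 12)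
noncomputable def ww (u v : ℕ) : Co0 := gw (V2 u v) 12 * gw (V1 u) 12

theorem tk_ww (u v : ℕ) : Tk (ww u v) (fun x => evw cTq (V2 u v) (evw cTq (V1 u) x 12) 12)
    fun x => evw cTr (V2 u v) (evw cTr (V1 u) x 12) 12 := (tk_gw _ _).mul (tk_gw _ _)

theorem of_enc {y : S6} (hy : y ∈ Q5) : (enc y = 1 → y = ⟨y.p, 1, 0, 0, 0, 0⟩) ∧
    (enc y = 3 → y = ⟨y.p, 0, 1, 0, 0, 0⟩) := by
  have := (by decide : ∀ q s a z : K3,
    (enc ⟨0, q, s, 0, a, z⟩ = 1 → q = 1 ∧ s = 0 ∧ a = 0 ∧ z = 0) ∧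
    (enc ⟨0, q, s, 0, a, z⟩ = 3 → q = 0 ∧ s = 1 ∧ a = 0 ∧ z = 0)) y.q y.s y.a y.z
  constructor <;> intro e
  · obtain ⟨a, b, c, d⟩ := this.1 e
    exact S6.ext rfl a b hy c d
  · obtain ⟨a, b, c, d⟩ := this.2 e
    exact S6.ext rfl a b hy c d

/-- elements on which `H` undoes `τ` -/
def undo (H : Co0) {τ : S6 → S6} (h : AutQ τ) : Submonoid S6 where
  carrier := {x | x ∈ Q5 ∧ H * ι (τ x) * H⁻¹ = ι x}
  one_mem' := ⟨one_mem _, by simp [h.one]⟩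
  mul_mem' := fun {x y} a b => ⟨mul_mem a.1 b.1, by
    rw [h.mul x a.1 y b.1, map_mul, map_mul, ← a.2, ← b.2]; group⟩

theorem cj3 (a b c x : Co0) : a * b * c * x * (a * b * c)⁻¹ = a * (b * (c * x * c⁻¹) * b⁻¹) * a⁻¹ := by
  group

theorem red {τ : S6 → S6} (h : AutQ τ) : ∃ (u v : ℕ) (e : Bool) (t : S6), okb u v = true ∧
    ∀ j ∈ J3, ι t * cond e gμ 1 * ww u v * ι (τ j) * (ι t * cond e gμ 1 * ww u v)⁻¹ = ι j := by
  have ok : okb (enc (τ xq)) (enc (τ xs)) = true := ck_ok _ _ _ _ _ _ _ _ h.val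
  set u := enc (τ xq)
  set v := enc (τ xs)
  have ok' := ok
  simp only [okb, Bool.and_eq_true, beq_iff] at ok'
  obtain ⟨⟨⟨k1, k2⟩, k3⟩, -⟩ := ok'
  obtain ⟨y1, m1, e1, n1⟩ := (tk_ww u v).1 _ (h.mem xq rfl)
  obtain ⟨y2, m2, e2, n2⟩ := (tk_ww u v).1 _ (h.mem xs rfl)
  have n1' := (of_enc m1).1 (n1.trans ((congrArg (evw cTq (V2 u v) · 12) k1).trans k2))
  have n2' := (of_enc m2).2 (n2.trans k3)
  obtain ⟨σ, hσ, eσ⟩ := exists_autQ (tk_ww u v).nq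
  have e0 := eσ _ (h.mem xp rfl)
  have fin : ∀ (e : Bool) (f : S6 → S6) (t : S6), (∀ x, cond e gμ 1 * ι x * (cond e gμ 1)⁻¹ = ι (f x)) →
      t * f (σ (τ xp)) * t⁻¹ = xp → t * f y1 * t⁻¹ = xq → t * f y2 * t⁻¹ = xs →
      ∀ j ∈ J3, ι t * cond e gμ 1 * ww u v * ι (τ j) * (ι t * cond e gμ 1 * ww u v)⁻¹ = ι j :=
    fun e f t hf a b c j hj => (ind6 (K := undo _ h)
      (fun _ => ⟨rfl, by rw [cj3, e0, hf, ← map_inv, ← map_mul, ← map_mul, a]⟩)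
      (fun _ => ⟨rfl, by rw [cj3, e1, hf, ← map_inv, ← map_mul, ← map_mul, b]⟩)
      (fun _ => ⟨rfl, by rw [cj3, e2, hf, ← map_inv, ← map_mul, ← map_mul, c]⟩)
      (fun k => absurd hj.1 k) (fun k => absurd hj.2.1 k) fun k => absurd hj.2.2 k).2
  rcases (h.comp hσ).z with k | k <;> simp only [Function.comp] at k
  · refine ⟨u, v, false, ⟨0, 0, 0, 0, y1.p, y2.p⟩, ok, fin false id _ (fun x => by simp) ?_ ?_ ?_⟩
    · rw [k]; ext <;> simp [xp]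
    · rw [n1']; ext <;> simp [xq]; grind
    · rw [n2']; ext <;> simp [xs]; grind
  · refine ⟨u, v, true, ⟨0, 0, 0, 0, -y1.p, -y2.p⟩, ok, fin true fu _ (cj_u rμ) ?_ ?_ ?_⟩
    · rw [k]; ext <;> simp [xp, fu]
    · rw [n1']; ext <;> simp [xq, fu]; grind
    · rw [n2']; ext <;> simp [xs, fu]; grind

theorem gμ_NS (e : Bool) : cond e gμ 1 ∈ NS := by
  cases e
  exacts [one_mem _, mem_NS.2 fun x => ⟨_, cj_u rμ x⟩]

theorem gμ_NQ (e : Bool) : cond e gμ 1 ∈ NQ := by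
  cases e
  exacts [one_mem _, mem_NQ.2 fun x hx => ⟨_, by simpa [fu] using hx, cj_u rμ x⟩]

theorem ι_NQ (t : S6) : ι t ∈ NQ := mem_NQ.2 fun x hx =>
  ⟨t * x * t⁻¹, by simpa using hx, by simp⟩

theorem sur {τ : S6 → S6} (h : AutQ τ) : ∃ g : Co0, ∀ x ∈ Q5, g * ι x * g⁻¹ = ι (τ x) := by
  obtain ⟨u, v, e, t, -, hH⟩ := red h
  have hq : ι t * cond e gμ 1 * ww u v ∈ NQ := mul_mem (mul_mem (ι_NQ t) (gμ_NQ e)) (tk_ww u v).nq
  generalize ι t * cond e gμ 1 * ww u v = H at hH hq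
  obtain ⟨σ, hσ, eσ⟩ := exists_autQ hq
  have k := h.comp hσ
  have f : ∀ j ∈ J3, (σ ∘ τ) j = j := fun j hj => ι_inj ((eσ _ (h.mem j hj.1)).symm.trans (hH j hj))
  have rel : ∀ x j j', x ∈ Q5 → j ∈ J3 → j' ∈ J3 → x * j = j' * x →
      (σ ∘ τ) x * j = j' * (σ ∘ τ) x := fun x j j' a b c e => by
    have := k.cj a b.1 c.1 e
    rwa [f j b, f j' c] at this
  have a1 := congrArg S6.p (rel xa xq (xp⁻¹ * xq) rfl ⟨rfl, rfl, rfl⟩ ⟨rfl, rfl, rfl⟩ (by decide))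
  have a2 := congrArg S6.p (rel xa xs xs rfl ⟨rfl, rfl, rfl⟩ ⟨rfl, rfl, rfl⟩ (by decide))
  have b1 := congrArg S6.p (rel xz xq xq rfl ⟨rfl, rfl, rfl⟩ ⟨rfl, rfl, rfl⟩ (by decide))
  have b2 := congrArg S6.p (rel xz xs (xp⁻¹ * xs) rfl ⟨rfl, rfl, rfl⟩ ⟨rfl, rfl, rfl⟩ (by decide))
  have ma := k.mem xa rfl
  have mz := k.mem xz rfl
  have c := (comQ ma mz).1 ((k.com rfl rfl).2 (by decide))
  have ea := eσ _ (h.mem xa rfl)
  have ez := eσ _ (h.mem xz rfl)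
  change _ = ι ((σ ∘ τ) xa) at ea
  change _ = ι ((σ ∘ τ) xz) at ez
  generalize (σ ∘ τ) xa = y at *
  generalize (σ ∘ τ) xz = y' at *
  simp [xp, xq, xs] at a1 a2 b1 b2 ma mz
  have a1' : y.a = 1 := by grind
  have a2' : y.z = 0 := by grind
  have b1' : y'.a = 0 := by grind
  have b2' : y'.z = 1 := by grind
  have c' : y'.q = y.s := by simpa [a1', a2', b1', b2'] using c
  let c : Sy := jv 0 (y.p - y.q) (-y.q) (y'.p - y'.s) (-y.s) (-y'.s)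
  have key : ∀ x x', c * emb x * c⁻¹ = emb x' → H * ι (τ x) * H⁻¹ = ι x' →
      (io c)⁻¹ * H * ι (τ x) * ((io c)⁻¹ * H)⁻¹ = ι x := fun x x' e1 e2 => by
    have := congrArg io e1
    rw [map_mul, map_mul, map_inv, ← ι_apply, ← ι_apply, ← e2] at this
    calc _ = (io c)⁻¹ * (H * ι (τ x) * H⁻¹) * io c := by group
      _ = _ := by rw [← this]; group
  have kj : ∀ j ∈ J3, j ∈ undo ((io c)⁻¹ * H) h := fun j hj => ⟨hj.1, key j j (by
    ext <;> simp [c, emb_apply, hj.2.1, hj.2.2] <;> ring) (hH j hj)⟩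
  refine ⟨((io c)⁻¹ * H)⁻¹, fun x hx => ?_⟩
  rw [← (ind6 (K := undo ((io c)⁻¹ * H) h) (fun _ => kj _ ⟨rfl, rfl, rfl⟩)
    (fun _ => kj _ ⟨rfl, rfl, rfl⟩) (fun _ => kj _ ⟨rfl, rfl, rfl⟩) (fun k => absurd hx k)
    (fun _ => ⟨rfl, key _ _ ?_ ea⟩) fun _ => ⟨rfl, key _ _ ?_ ez⟩).2]
  · group
  · ext <;> simp [c, emb_apply, xa, a1', a2', ma]; grind
  · ext <;> simp [c, emb_apply, xz, b1', b2', c', mz]; grind

theorem cenQ (g : Co0) (h : ∀ x ∈ Q5, g * ι x = ι x * g) : ∃ z ∈ Z1, Pm (g * (ι z)⁻¹) := by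
  obtain ⟨c, hc, e⟩ := tl_c3 g fun j hj => h j hj.1
  have k : ∀ x ∈ Q5, c * emb x = emb x * c := fun x hx => io_injective (by
    have h1 := Subgroup.mem_center_iff.1 e.center (ι x)
    rw [map_mul, map_mul, ← ι_apply]
    calc _ = io c * (g⁻¹ * (ι x * (g * (io c)⁻¹)) * io c) := by rw [← mul_assoc (ι x), ← h x hx]; group
      _ = _ := by rw [h1]; group)
  have k1 := k xa rfl
  have k2 := k xz rfl
  obtain ⟨a, b, z⟩ := hc
  simp [Sy.ext_iff, emb_apply, xa, xz, a, b, z] at k1 k2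
  refine ⟨⟨c.p, 0, 0, 0, 0, 0⟩, ⟨rfl, rfl, rfl, rfl, rfl⟩, ?_⟩
  rwa [ι_apply, show emb ⟨c.p, 0, 0, 0, 0, 0⟩ = c by ext <;> simp [emb_apply, a, b, z] <;> grind]

/-- monomial elements fixing the coordinate `0` -/
def Ok' (π : Fin 12 → Fin 12) : Prop := π 0 = 0 ∧
  ((π 1 = 1 ∧ π 2 = 2) ∨ (π 1 = 2 ∧ π 2 = 1)) ∧ ∀ i, i ≠ 0 → π i ≠ 0

instance decOk' (π : Fin 12 → Fin 12) : Decidable (Ok' π) := by unfold Ok'; infer_instance

def Ok (m : Mo) : Prop := Ok' fun i => (m i).1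

instance decOk (m : Mo) : Decidable (Ok m) := decOk' _

theorem ap_sgn (m : Mo) (s : Bool) (v : Ve) (i : Fin 12) :
    ap m (fun i => sgn s * v i) i = sgn s * ap m v i := by
  simp only [ap]
  rcases (m i).2.1 with _ | _ <;> cases s <;> simp [cjg, sgn]

def MnS : Submonoid Co0 where
  carrier := {n | ∃ (ε : Bool) (m : Mo), (∀ x i, Pl (hm n x) i = sgn ε * ap m (Pl x) i) ∧ Ok m}
  one_mem' := ⟨false, tw s0 1, fun x i => by
    rw [sgn, cond_false, one_mul]; exact congrFun (Rep_one x) i, by decide⟩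
  mul_mem' := by
    rintro g h ⟨ε, m, a, b⟩ ⟨ε', m', a', b'⟩
    refine ⟨xor ε ε', cp m m', fun x i => ?_, ?_, ?_, fun i hi => b'.2.2 _ (b.2.2 i hi)⟩
    · rw [hm_mul, a, funext (a' x), ap_sgn, ap_cp, ← mul_assoc,
        (by decide : ∀ ε ε', sgn ε * sgn ε' = sgn (xor ε ε'))]
    · have c : (m 0).1 = 0 := b.1
      have c' : (m' 0).1 = 0 := b'.1
      simp only [cp, c, c']
    · have c := b.2.1
      have c' := b'.2.1
      dsimp only at c c'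
      rcases c with c | c <;> rcases c' with c' | c' <;> simp [cp, c.1, c.2, c'.1, c'.2]

theorem inv_MnS {g : Co0} (h : g ∈ MnS) : g⁻¹ ∈ MnS := by
  have := finite_Co0
  rw [inv_eq_of_mul_eq_one_right (b := g ^ (orderOf g - 1)) (by
    rw [← pow_succ', Nat.sub_add_cancel (orderOf_pos g), pow_orderOf_eq_one])]
  exact pow_mem h _

theorem Rep_MnS {g : Co0} {m : Mo} (h : Rep g m) (k : Ok m) : g ∈ MnS :=
  ⟨false, m, fun x i => by rw [sgn, cond_false, one_mul]; exact congrFun (h x) i, k⟩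

theorem Pm_sgn {n : Co0} (h : Pm n) : ∃ ε, ∀ x i, Pl (hm n x) i = sgn ε * Pl x i := by
  rcases h with h | h
  · exact ⟨false, fun x i => by simp [h, sgn]⟩
  · exact ⟨true, fun x i => by simp [h, sgn]⟩

theorem Pm_MnS {n : Co0} (h : Pm n) : n ∈ MnS := (Pm_sgn h).imp fun ε k =>
  ⟨tw s0 1, fun x i => by rw [k]; exact congrArg _ (congrFun (Rep_one x) i), by decide⟩

theorem tw_fst (σ : Sp) (x : Sy) (i : Fin 12) : (tw σ x i).1 = (σ i).1 := rfl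

theorem Ok_tw {σ : Sp} (h : Ok' fun i => (σ i).1) (x : Sy) : Ok (tw σ x) :=
  (congrArg Ok' (funext (tw_fst σ x))).mpr h

theorem ok_sR : ∀ a z, Ok' fun i => (sR a 0 z i).1 := by decide +kernel

theorem io_MnS {c : Sy} (h : c.b = 0) : io c ∈ MnS := by
  have := io_rep c
  rw [mS, h] at this
  exact Rep_MnS this (Ok_tw (ok_sR c.a c.z) c)

theorem MnS_P0 {g : Co0} (h : g ∈ MnS) {x : leechLattice} (hx : P0 x) : P0 (hm g x) := by
  obtain ⟨ε, m, a, b⟩ := h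
  intro i hi
  rw [a, ap, hx _ (b.2.2 i hi)]
  rcases (m i).2.1 with _ | _ <;> simp [cjg]

theorem gμ_MnS (e : Bool) : cond e gμ 1 ∈ MnS := by
  cases e
  exacts [one_mem _, Rep_MnS rμ (by decide)]

theorem P0.neg {x : leechLattice} (h : P0 x) : P0 (-x) := fun i hi => by simp [h i hi]

theorem trk {w : Co0} {f r : ℕ → ℕ} (hw : Tk w f r) {y : leechLattice} (hy : P0 y)
    (hn : bf (Pl y 0) (Pl y 0) = bf th th) (hP : P0 (hm w y)) :
    ∃ s k, Pl y 0 = th * (sgn s * om k) ∧ r k.val < 6 := by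
  obtain ⟨s, k, e⟩ := nrm hn
  have hk : k.val < 72 := (ZMod.val_lt k).trans (by decide)
  have main : ∀ y', P0 y' → Pl y' 0 = th * om k → P0 (hm w y') → r k.val < 6 := fun y' a b c => by
    have h1 : Crd y' (root k.val) := crd_iff.2 fun i => by
      by_cases hi : i = 0
      · rw [hi, b]; exact (by decide : ∀ k : K3, th * om k = 24 * ex (root k.val) 0) k
      · rw [a i hi]
        exact (by decide : ∀ k : K3, ∀ i, i ≠ 0 → 0 = 24 * ex (root k.val) i) k i hi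
    have h2 := crd_iff.1 ((hw.2 _ hk).2 _ h1)
    exact of_decide_eq_true (allb_iff.1 (by decide +kernel : allb (fun n => decide
      (0 = 24 * ex (root n) 1 → 0 = 24 * ex (root n) 2 → n < 6)) 72 = true) _ (hw.2 _ hk).1)
      ((c 1 (by decide)).symm.trans (h2 1)) ((c 2 (by decide)).symm.trans (h2 2))
  refine ⟨s, k, e, ?_⟩
  cases s
  · exact main y hy (by simpa [sgn] using e) hP
  · exact main (-y) hy.neg (by simp [e, sgn]) (by rw [map_neg]; exact hP.neg)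

theorem crd_P0 {x : leechLattice} {k : K3} (h : Crd x (rt 0 k)) : P0 x ∧ Pl x 0 = th * om k :=
  ⟨fun i hi => (crd_iff.1 h i).trans
    ((by decide : ∀ k : K3, ∀ i, i ≠ 0 → 24 * ex (rt 0 k) i = 0) k i hi),
    (crd_iff.1 h 0).trans ((by decide : ∀ k : K3, 24 * ex (rt 0 k) 0 = th * om k) k)⟩

def sp (σ : Sp) (n : ℕ) : Sp := Nat.rec s0 (fun _ acc => sc σ acc) n

theorem Rep_pow {g : Co0} {σ : Sp} (h : Rep g (tw σ 1)) (n : ℕ) : Rep (g ^ n) (tw (sp σ n) 1) := by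
  induction n with
  | zero => exact Rep_one
  | succ n ih => rw [pow_succ']; exact Rep_mul h ih

theorem pow_one_of {g : Co0} {σ : Sp} (h : Rep g (tw σ 1)) {n : ℕ} (e : ∀ i, sp σ n i = s0 i) :
    g ^ n = 1 := (Rep_pow h n).uniq (funext e ▸ Rep_one)

theorem str {g : Co0} (hg : g ∈ NQ) {x x' : leechLattice} (hx : Crd x (rt 0 0))
    (hx' : Crd x' (rt 0 1)) (h : P0 (hm g x)) (h' : P0 (hm g x')) :
    ∃ a < 8, ∃ b < 2, ∃ (e : Bool) (t : S6) (n : Co0), ∃ c ∈ Co.J, Pm n ∧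
      ι t * cond e gμ 1 * (gσ ^ b * gv ^ a) * g = n * io c := by
  obtain ⟨τ, hτ, eτ⟩ := exists_autQ hg
  obtain ⟨u, v, e, t, ok, hH⟩ := red hτ
  obtain ⟨c, hc, n⟩ := tl_c3 (ι t * cond e gμ 1 * ww u v * g) fun j hj => by
    rw [← hH j hj, ← eτ j hj.1]
    conv_lhs => rw [eτ j hj.1, hH j hj]
    group
  have m : ww u v * g ∈ MnS := by
    have := mul_mem (inv_MnS (mul_mem (io_MnS (c := emb t) rfl) (gμ_MnS e)))
      (mul_mem (Pm_MnS n) (io_MnS hc.2.1))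
    rw [← ι_apply] at this
    convert this using 1
    group
  obtain ⟨p, q⟩ := crd_P0 hx
  obtain ⟨p', q'⟩ := crd_P0 hx'
  have B : ∀ {y y' : leechLattice}, P0 y' → P0 (hm g y') →
      bf (Pl (hm g y) 0) (Pl (hm g y') 0) = bf (Pl y 0) (Pl y' 0) := fun a b => by
    rw [← Bf_one a, ← Bf_one b, Bf_hm]
  obtain ⟨s, k, e1, l1⟩ := trk (tk_ww u v) h (by rw [B p h, q]; decide) (MnS_P0 m p)
  obtain ⟨s', k', e2, l2⟩ := trk (tk_ww u v) h' (by rw [B p' h', q']; decide) (MnS_P0 m p')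
  have ne : k ≠ k' := (by decide +kernel : ∀ s s' k k', bf (th * (sgn s * om k))
    (th * (sgn s' * om k')) = bf (th * om 0) (th * om 1) → k ≠ k') s s' k k'
    (by rw [← e1, ← e2, B p' h', q, q'])
  simp only [okb, Bool.and_eq_true, Bool.or_eq_true, Bool.not_eq_true', ← Bool.not_eq_true,
    Nat.blt_eq] at ok
  have o := ok.2.resolve_left (not_not.2 (by
    rcases (by decide : ∀ k k' : K3, k ≠ k' → (k.val = 0 ∧ k'.val = 1) ∨ (k.val = 1 ∧ k'.val = 0) ∨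
      (k.val = 0 ∧ k'.val = 2) ∨ (k.val = 2 ∧ k'.val = 0) ∨ (k.val = 1 ∧ k'.val = 2) ∨
      (k.val = 2 ∧ k'.val = 1)) k k' ne with a | a | a | a | a | a <;> rw [a.1] at l1 <;>
      rw [a.2] at l2
    exacts [.inl (.inl ⟨l1, l2⟩), .inl (.inl ⟨l2, l1⟩), .inl (.inr ⟨l1, l2⟩), .inl (.inr ⟨l2, l1⟩),
      .inr ⟨l1, l2⟩, .inr ⟨l2, l1⟩]))
  obtain ⟨a, ha⟩ := gw_pow o.1
  obtain ⟨b, hb⟩ := gw_pow o.2
  have ew : ww u v = gσ ^ (b % 2) * gv ^ (a % 8) := by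
    rw [← pow_eq_pow_mod b (pow_one_of rσ (by decide +kernel)),
      ← pow_eq_pow_mod a (pow_one_of rv (by decide +kernel))]
    exact congrArg₂ (· * ·) hb ha
  exact ⟨_, Nat.mod_lt a (by decide), _, Nat.mod_lt b (by decide), e, t, _, c, hc, n, by
    rw [← ew, inv_mul_cancel_right]⟩

end Cfsg.Agent.Fu.T
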