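import Cfsg.Agent.Fu.TG3

/-! The instance of `GN`. -/

set_option autoImplicit false

namespace Cfsg.Agent.Fu.T

open Cfsg.Agent.Co Cfsg.Agent.Co.A Cfsg.Spor Cfsg.Agent.H4 Cfsg.Agent.L Cfsg.Agent.L.PC

theorem tw_eq (σ : Sp) (x : Sy) (i : Fin 12) : tw σ x i = ((σ i).1, (σ i).2, cc i x) := rfl

theorem ap_tw (σ : Sp) (x : Sy) (v : Ve) (i : Fin 12) :
    ap (tw σ x) v i = om (cc i x) * cjg (σ i).2 (v (σ i).1) := rfl

/-- signed permutations fixing the coordinates `1, 2` -/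
def Fx (σ : Sp) : Prop := σ 1 = (1, false) ∧ σ 2 = (2, false) ∧
  ∀ i, i ≠ 1 → i ≠ 2 → (σ i).1 ≠ 1 ∧ (σ i).1 ≠ 2

instance decFx (σ : Sp) : Decidable (Fx σ) := by unfold Fx; infer_instance

theorem fx12 {g : Co0} {σ : Sp} {c : Sy} (h : Rep g (tw σ c)) (k : Fx σ) (h1 : cc 1 c = 0)
    (h2 : cc 2 c = 0) (x : leechLattice) : Pl (hm g x) 1 = Pl x 1 ∧ Pl (hm g x) 2 = Pl x 2 := by
  have e : ∀ i, Pl (hm g x) i = ap (tw σ c) (Pl x) i := congrFun (h x)
  rw [e, e, ap_tw, ap_tw, h1, h2, k.1, k.2.1]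
  exact ⟨one_mul (Pl x 1), one_mul (Pl x 2)⟩

theorem fixL_of {g : Co0} {σ : Sp} {c : Sy} (h : Rep g (tw σ c)) (k : Fx σ) (h1 : cc 1 c = 0)
    (h2 : cc 2 c = 0) {x : leechLattice} (hx : InL x) : hm g x = x := Pl_inj (funext fun i => by
  by_cases a : i = 1
  · rw [a]; exact (fx12 h k h1 h2 x).1
  by_cases b : i = 2
  · rw [b]; exact (fx12 h k h1 h2 x).2
  have e : Pl (hm g x) i = ap (tw σ c) (Pl x) i := congrFun (h x) i
  rw [e, ap_tw, hx _ (k.2.2 i a b).1 (k.2.2 i a b).2, hx i a b]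
  rcases (σ i).2 with _ | _ <;> simp [cjg])

theorem fx_sR : ∀ a z, Fx (sR a 0 z) := by decide +kernel

theorem rep_ι (s : S6) : Rep (ι s) (tw (sR s.a 0 s.z) (emb s)) := io_rep (emb s)

theorem ioJ_NS {c : Sy} (hc : c ∈ Co.J) : io c ∈ NS := mem_NS.2 fun x => by
  obtain ⟨a, b, z⟩ := hc
  refine ⟨⟨(c * emb x * c⁻¹).p, (c * emb x * c⁻¹).q, (c * emb x * c⁻¹).s, x.u, x.a, x.z⟩, ?_⟩
  rw [ι_apply, ι_apply, ← map_inv, ← map_mul, ← map_mul]
  congr 1
  ext <;> simp [emb_apply, a, b, z]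

theorem Pm_NS {n : Co0} (h : Pm n) : n ∈ NS := mem_NS.2 fun x =>
  ⟨x, by rw [← Subgroup.mem_center_iff.1 h.center, mul_inv_cancel_right]⟩

theorem ι_NS (t : S6) : ι t ∈ NS := mem_NS.2 fun x => ⟨t * x * t⁻¹, by simp⟩

theorem gn_p0 (g : Co0) (hg : g ∈ NQ) (x x' : leechLattice) (hx : Crd x (rt 0 0))
    (hx' : Crd x' (rt 0 1)) (h : P0 (hm g x)) (h' : P0 (hm g x')) : g ∈ NS := by
  obtain ⟨a, -, b, -, e, t, n, c, hc, hn, k⟩ := str hg hx hx' h h'
  rw [eq_inv_mul_of_mul_eq k]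
  exact mul_mem (inv_mem (mul_mem (mul_mem (ι_NS t) (gμ_NS e))
    (mul_mem (pow_mem (mem_NS.2 fun x => ⟨_, cj_σ rσ x⟩) _)
      (pow_mem (mem_NS.2 fun x => ⟨_, cj_v rv x⟩) _)))) (mul_mem (Pm_NS hn) (ioJ_NS hc))

theorem inU_rt : ∀ i k, InU (rt i k) := by unfold InU; decide

theorem gn_mon (n : Co0) (hq : n ∈ NQ) (hs : n ∈ NS) : Mon n := by
  obtain ⟨τ, hτ, eτ⟩ := exists_autQ hq
  choose β hβ using mem_NS.1 hs
  have mul : ∀ x y, β (x * y) = β x * β y := fun x y => ι_inj (by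
    rw [map_mul, ← hβ, ← hβ, ← hβ, map_mul]; group)
  have eq : ∀ x ∈ Q5, τ x = β x := fun x hx => ι_inj ((eτ x hx).symm.trans (hβ x))
  have v := hτ.val
  have z := hτ.z
  have mq := hτ.mem xq rfl
  have ms := hτ.mem xs rfl
  rw [eq xq rfl, eq xs rfl] at v
  rw [eq xp rfl] at z
  rw [eq _ rfl] at mq ms
  have r1 := congrArg β (by decide : xa * xu = xp * xq * (xu * xa))
  have r2 := congrArg β (by decide : xz * xu = xp * xs * (xu * xz))
  have r3 := congrArg β (by decide : xu * xq = xq * xu)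
  have r4 := congrArg β (by decide : xu * xs = xs * xu)
  simp only [mul] at r1 r2 r3 r4
  have za : (β xp).a = 0 ∧ (β xp).z = 0 := by rcases z with z | z <;> rw [z] <;> decide
  have a1 := congrArg S6.a r1
  have z1 := congrArg S6.z r1
  have a2 := congrArg S6.a r2
  have z2 := congrArg S6.z r2
  have p3 := congrArg S6.p r3
  have p4 := congrArg S6.p r4
  simp only [mu_a, mu_z, za.1, za.2] at a1 z1 a2 z2
  have a1' : (β xq).a = 0 := by linear_combination -a1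
  have z1' : (β xq).z = 0 := by linear_combination -z1
  have a2' : (β xs).a = 0 := by linear_combination -a2
  have z2' : (β xs).z = 0 := by linear_combination -z2
  simp only [mu_p, a1', z1', a2', z2', mem_Q5.1 mq, mem_Q5.1 ms] at p3 p4
  rw [a1', z1', a2', z2'] at v
  have hJ : β xu ∈ J4 := (by decide +kernel : ∀ q s q' s' a z : K3, Val q s 0 0 q' s' 0 0 →
    a * q + z * s = 0 → a * q' + z * s' = 0 → a = 0 ∧ z = 0) _ _ _ _ _ _ v
    (by linear_combination -p3 + ((β xu).a * (β xq).q + (β xu).z * (β xq).s) * three)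
    (by linear_combination -p4 + ((β xu).a * (β xs).q + (β xu).z * (β xs).s) * three)
  have key : ∀ x k, Crd x (rt 0 k) → P0 (hm n x) := fun x k hx i hi => by
    by_cases h3 : 3 ≤ i.val
    · exact inM_NQ hq hx.1 i h3
    refine tr0 (j := emb xu) ⟨rfl, rfl, rfl⟩ (emb_J hJ) (mul_inv_eq_iff_eq_mul.1 (hβ xu))
      (fun l hl => (crd_P0 hx).1 l fun e => absurd (e ▸ hl) (by decide)) i ?_
    rcases (by omega : i = 1 ∨ i = 2) with rfl | rfl
    exacts [(z12 _).1, (z12 _).2]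
  obtain ⟨x, hx⟩ := tl_vec _ (inU_rt 0 0)
  obtain ⟨x', hx'⟩ := tl_vec _ (inU_rt 0 1)
  obtain ⟨a, -, b, -, e, t, m, c, hc, hm', k⟩ := str hq hx hx' (key _ _ hx) (key _ _ hx')
  have : n ∈ MnS := by
    rw [eq_inv_mul_of_mul_eq k]
    exact mul_mem (inv_MnS (mul_mem (mul_mem (io_MnS (c := emb t) rfl) (gμ_MnS e))
      (mul_mem (pow_mem (Rep_MnS rσ (by decide)) _) (pow_mem (Rep_MnS rv (by decide)) _))))
      (mul_mem (Pm_MnS hm') (io_MnS hc.2.1))
  obtain ⟨ε, m, h1, h2⟩ := this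
  exact ⟨ε, m, h1, h2.1, h2.2.1⟩

theorem bf_zero {y : Ei} (h0 : bf y (th * om 0) = 0) (h1 : bf y (th * om 1) = 0) : y = 0 := by
  rw [(by decide : th * om 0 = ⟨24, 48⟩)] at h0
  rw [(by decide : th * om 1 = ⟨-48, -24⟩)] at h1
  simp only [bf] at h0 h1
  ext <;> simp <;> omega

set_option synthInstance.maxSize 2048 in
set_option synthInstance.maxHeartbeats 200000 in
theorem ck_σ : ∀ e : Bool, ∀ b < 2, ∀ a < 8,
    sc (cond e su s0) (sc (sp sσ b) (sp sv a)) 1 = (1, false) →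
    sc (cond e su s0) (sc (sp sσ b) (sp sv a)) 2 = (2, false) →
    ∃ k < 4, ∀ i, sc (cond e su s0) (sc (sp sσ b) (sp sv a)) i = sp sd k i := by decide +kernel

theorem ck_ev : ∀ l : Fin 3, l ≠ 0 → ∀ (π : Fin 12) (e ε : Bool) (c : K3),
    (∀ k, om 0 * cjg e (24 * ex (rt l k) π) = sgn ε * (om c * (24 * ex (rt l k) (l.castLE (by decide))))) →
    (π, e) = (l.castLE (by decide), false) ∧ ε = false ∧ c = 0 := by decide +kernel

theorem gn_kl : KL gd' := fun g hg h => by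
  have vec : ∀ i k, ∃ x, Crd x (rt i k) := fun i k => tl_vec _ (inU_rt i k)
  have key : ∀ x k, Crd x (rt 0 k) → P0 (hm g x) := fun x k hx i hi => by
    by_cases h3 : 3 ≤ i.val
    · exact inM_NQ hg hx.1 i h3
    have o : ∀ (l : Fin 3) k', l ≠ 0 → (∀ y, Crd y (rt l k') → hm g y = y) →
        bf (Pl (hm g x) (l.castLE (by decide))) (th * om k') = 0 := fun l k' hl hf => by
      obtain ⟨y, hy⟩ := vec l k'
      have e := Bf_hm g x y
      have sy : ∀ j, j ≠ l.castLE (by decide) → Pl y j = 0 := fun j hj => (crd_iff.1 hy j).trans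
        ((by decide : ∀ (l : Fin 3) k' j, j ≠ l.castLE (by decide) → 24 * ex (rt l k') j = 0) l k' j hj)
      rw [hf y hy, Bf_one sy, Bf_one sy, (crd_P0 hx).1 _ (fun e => hl (Fin.ext (congrArg Fin.val e :))),
        crd_iff.1 hy, (by decide : ∀ (l : Fin 3) k', 24 * ex (rt l k') (l.castLE (by decide)) =
          th * om k') l k'] at e
      simpa [bf] using e
    rcases (by omega : i = 1 ∨ i = 2) with rfl | rfl
    · exact bf_zero (o 1 0 (by decide) fun y hy => h y _ (.inl hy))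
        (o 1 1 (by decide) fun y hy => h y _ (.inl hy))
    · exact bf_zero (o 2 0 (by decide) fun y hy => h y _ (.inr hy))
        (o 2 1 (by decide) fun y hy => h y _ (.inr hy))
  obtain ⟨x, hx⟩ := vec 0 0
  obtain ⟨x', hx'⟩ := vec 0 1
  obtain ⟨a, ha, b, hb, e, t, n, c, hc, hn, k⟩ := str hg hx hx' (key _ _ hx) (key _ _ hx')
  obtain ⟨ε, hε⟩ := Pm_sgn hn
  have rδ : Rep (cond e gμ 1 * (gσ ^ b * gv ^ a))
      (tw (sc (cond e su s0) (sc (sp sσ b) (sp sv a))) 1) :=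
    Rep_mul (by cases e; exacts [Rep_one, rμ]) (Rep_mul (Rep_pow rσ b) (Rep_pow rv a))
  have ck := ck_σ e b hb a ha
  rw [mul_assoc (ι t)] at k
  generalize sc (cond e su s0) (sc (sp sσ b) (sp sv a)) = σ at rδ ck
  generalize cond e gμ 1 * (gσ ^ b * gv ^ a) = δ at rδ k
  have ev : ∀ l : Fin 3, l ≠ 0 → (∀ y k', Crd y (rt l k') → hm g y = y) →
      (∀ y, Pl (hm (ι t) y) (l.castLE (by decide)) = Pl y (l.castLE (by decide))) →
      σ (l.castLE (by decide)) = (l.castLE (by decide), false) ∧ ε = false ∧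
        cc (l.castLE (by decide)) c = 0 := fun l hl hf ht => ck_ev l hl _ _ ε _ fun k' => by
    obtain ⟨y, hy⟩ := vec l k'
    have e1 := congrArg (fun w => Pl (hm w y) (l.castLE (by decide))) k
    have e2 : Pl (hm δ y) = ap (tw σ 1) (Pl y) := rδ y
    simp only [hm_mul] at e1
    rwa [hf y k' hy, ht, hε, Pl_J hc, e2, ap_tw, cc_one, crd_iff.1 hy, crd_iff.1 hy] at e1
  have f := fx12 (rep_ι t) (fx_sR _ _) (z12 t).1 (z12 t).2
  obtain ⟨s1, rfl, c1⟩ := ev 1 (by decide) (fun y k' hy => h y k' (.inl hy)) fun y => (f y).1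
  obtain ⟨s2, -, c2⟩ := ev 2 (by decide) (fun y k' hy => h y k' (.inr hy)) fun y => (f y).2
  obtain ⟨j, -, hj⟩ := ck s1 s2
  have eδ : δ = gd' ^ j := rδ.uniq (funext hj ▸ Rep_pow rd j)
  have en : n = 1 := hm_ext fun y => Pl_inj (funext fun i => by rw [hε, hm_one]; exact one_mul _)
  have ec : io c = ι ⟨c.p, c.q, c.s, c.u, 0, 0⟩ := by
    have c1' : c.r + c.t - c.u = 0 := c1
    have c2' : c.r - c.t - c.u = 0 := c2
    obtain ⟨a, b, z⟩ := hc
    rw [ι_apply]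
    congr 1
    ext <;> simp [emb_apply, a, b, z] <;> grind
  have d4 : gd' ^ 4 = 1 := pow_one_of rd (by decide +kernel)
  obtain ⟨s, hs⟩ := mem_NS.1 (pow_mem (mem_NS.2 fun x => ⟨_, cj_d rd x⟩) (3 * j))
    (t⁻¹ * ⟨c.p, c.q, c.s, c.u, 0, 0⟩)
  refine ⟨s, 3 * j, ?_⟩
  have e3 : gd' ^ (3 * j) * gd' ^ j = 1 := by
    rw [← pow_add, show 3 * j + j = 4 * j by ring, pow_mul, d4, one_pow]
  rw [← hs, inv_mul_cancel_right, map_mul, map_inv, ← ec, ← one_mul (io c), ← en, ← k, eδ,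
    mul_assoc (ι t), inv_mul_cancel_left, ← mul_assoc, e3, one_mul]

instance instGN : GN where
  cQ := cenQ
  sur _ h := sur h
  w := ex_w.imp fun _ h => ⟨fun _ hj => cj_w h hj, fun _ hx =>
    fixL_of h (by decide) (cc_one 1) (cc_one 2) hx⟩
  d := ⟨gd', cj_d rd, rd, gn_kl⟩
  fixL s _ hx := fixL_of (rep_ι s) (fx_sR _ _) (z12 s).1 (z12 s).2 hx
  inM _ hg _ hx := inM_NQ hg hx
  p0 := gn_p0
  mon := gn_mon

end Cfsg.Agent.Fu.T
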